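import Cfsg.Agent.H535.Ore.ON
import Cfsg.Agent.H643.PwCnt

/-!
# S2465, the row O'N (helper291)

Every `g ≠ 1` is a product of two elements of order 11 (`prd_on` of helper535): everything prime to 11. For `p = 11`:
`11² ∤ |O'N|` and the counting lemma of helper643.
-/

set_option autoImplicit false

namespace Cfsg.Agent.H291.Pw

open Cfsg Cfsg.Agent.H78.Pw

theorem pr_on {n : ℕ} (h11 : Nat.Coprime 11 n) : All n Spor.ON := by
  intro g
  by_cases hg : g = 1
  · rw [hg]; exact Pr.one n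
  obtain ⟨x, t, hx, -, -⟩ := Cfsg.Agent.H535.Ore.ON.exists_inverted
  obtain ⟨a, b, h⟩ := Cfsg.Agent.H535.Ore.ON.prd_on hx hx hg
  refine ⟨a * x * a⁻¹, b * x * b⁻¹, h, ?_, ?_⟩
  · rw [show a * x * a⁻¹ = MulAut.conj a x from rfl, MulEquiv.orderOf_eq, hx]; exact h11
  · rw [show b * x * b⁻¹ = MulAut.conj b x from rfl, MulEquiv.orderOf_eq, hx]; exact h11

/-- **S2465, the row of O'N** -/
theorem pw_on {S : Type*} [Group S] (h : Spor.IsoON S) : Pw S := by
  obtain ⟨e⟩ := h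
  refine Pw.congr e.symm ⟨pr_on (by norm_num), fun p hp h5 => ?_⟩
  by_cases h11 : p = 11
  · subst h11
    have hfin := Cfsg.Agent.KFacts.ON.Cent.finite_ON
    have hs : IsSimpleGroup Spor.ON := Cfsg.Agent.KFacts.ON.Cent.hON.1
    exact Cfsg.Agent.H643.PwCnt.all_of_not_sq_dvd Cfsg.Agent.H535.Ore.ON.not_comm hp
      (by rw [Cfsg.Agent.KFacts.ON.Cent.hON.2]; norm_num)
  · exact pr_on ((Nat.coprime_primes (by norm_num) hp).2 (Ne.symm h11))

end Cfsg.Agent.H291.Pw
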